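import Cfsg.Agent.S1255
import Cfsg.Agent.Lib.Helper52.KleinFusion
import Cfsg.Agent.Lib.Helper52.KleinSylow
import Cfsg.Agent.Lib.Helper67.Basic
import Mathlib

set_option autoImplicit false

namespace Cfsg.Agent.Lib.Helper67.DihFour

open Cfsg.Agent.S1255

/-- Parity on `ZMod (2 ^ (k + 1))`. -/
def par (k : ℕ) : ZMod (2 ^ (k + 1)) →+* ZMod 2 :=
  ZMod.castHom (dvd_pow_self 2 (Nat.succ_ne_zero k)) (ZMod 2)

theorem two_eq_zero_zmod : (2 : ZMod 2) = 0 := by decide

theorem par_two_mul (k : ℕ) (j : ZMod (2 ^ (k + 1))) : par k (2 * j) = 0 := by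
  rw [map_mul, map_ofNat, two_eq_zero_zmod, zero_mul]

theorem par_hf (k : ℕ) (hk : 1 ≤ k) : par k (hf k) = 0 := by
  unfold hf
  rw [map_natCast]
  exact (ZMod.natCast_eq_zero_iff _ 2).mpr (dvd_pow_self 2 (by omega))

theorem par_one_ne (k : ℕ) : par k 1 ≠ 0 := by
  rw [map_one]; decide

theorem isUnit_of_par_ne (k : ℕ) (i : ZMod (2 ^ (k + 1))) (h : par k i ≠ 0) : IsUnit i := by
  have hv : ¬ 2 ∣ i.val := by
    intro h2
    apply h
    have h3 : par k i = ((i.val : ℕ) : ZMod 2) := by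
      conv_lhs => rw [← ZMod.natCast_zmod_val i]
      rw [map_natCast]
    rw [h3]
    exact (ZMod.natCast_eq_zero_iff _ 2).mpr h2
  have hc : Nat.Coprime i.val (2 ^ (k + 1)) :=
    Nat.Coprime.pow_right _ ((Nat.Prime.coprime_iff_not_dvd Nat.prime_two).mpr hv).symm
  have h4 := (ZMod.isUnit_iff_coprime i.val (2 ^ (k + 1))).mpr hc
  rwa [ZMod.natCast_zmod_val] at h4

theorem isUnit_natCast_of_odd (k q : ℕ) (hq : Odd q) : IsUnit ((q : ℕ) : ZMod (2 ^ (k + 1))) :=
  (ZMod.isUnit_iff_coprime q _).mpr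
    (Nat.Coprime.pow_right _
      ((Nat.Prime.coprime_iff_not_dvd Nat.prime_two).mpr (Odd.not_two_dvd_nat hq)).symm)

theorem add_self_eq_zero_cases (k : ℕ) (i : ZMod (2 ^ (k + 1))) (h : i + i = 0) :
    i = 0 ∨ i = hf k := by
  have h1 : ((i.val + i.val : ℕ) : ZMod (2 ^ (k + 1))) = 0 := by
    push_cast
    rw [ZMod.natCast_zmod_val]
    exact h
  have h2 := (ZMod.natCast_eq_zero_iff _ _).mp h1
  have h3 : i.val < 2 ^ (k + 1) := ZMod.val_lt i
  obtain ⟨c, hc⟩ := h2
  have hp : 2 ^ (k + 1) = 2 ^ k * 2 := pow_succ 2 k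
  have hpos : 0 < 2 ^ k := by positivity
  have hc' : i.val + i.val = 2 ^ k * 2 * c := by rw [← hp]; exact hc
  have h4 : i.val = 2 ^ k * c := by
    have h5 : 2 * i.val = 2 * (2 ^ k * c) := by rw [two_mul, hc']; ring
    exact Nat.eq_of_mul_eq_mul_left two_pos h5
  have hc2 : c < 2 := by
    by_contra hge
    have : 2 ^ k * 2 ≤ 2 ^ k * c := Nat.mul_le_mul_left _ (by omega)
    omega
  have hi : i = ((i.val : ℕ) : ZMod (2 ^ (k + 1))) := (ZMod.natCast_zmod_val i).symm
  interval_cases c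
  · left
    rw [hi, h4]; simp
  · right
    rw [hi, h4]; simp [hf]

section Coord

variable {X : Type*} [Group X] {S : Subgroup X} {n : ℕ} (e : S ≃* DihedralGroup n)

theorem T_inj {i j : ZMod n} (h : T e i = T e j) : i = j := by
  have h1 := e.symm.injective (Subtype.ext h)
  injection h1

theorem R_pow (i : ZMod n) (q : ℕ) : R e i ^ q = R e (i * q) := by
  unfold R; rw [← Subgroup.coe_pow, ← map_pow, DihedralGroup.r_pow]

theorem R_inv (i : ZMod n) : (R e i)⁻¹ = R e (-i) := by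
  rw [inv_eq_iff_mul_eq_one, RR, add_neg_cancel, R_zero]

theorem T_inv (i : ZMod n) : (T e i)⁻¹ = T e i := by
  rw [inv_eq_iff_mul_eq_one, TT_self]

theorem orderOf_R_one : orderOf (R e 1) = n := by
  unfold R
  rw [Subgroup.orderOf_coe, MulEquiv.orderOf_eq, DihedralGroup.orderOf_r_one]

end Coord


section Even

variable {X : Type*} [Group X] {S : Subgroup X} {k : ℕ} (e : S ≃* DihedralGroup (2 ^ (k + 1)))

/-- The elements of the index-two subgroup `⟨r², s⟩`. -/
def Ev (x : X) : Prop := ∃ i, par k i = 0 ∧ (x = R e i ∨ x = T e i)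

theorem Ev_mem {x : X} (h : Ev e x) : x ∈ S := by
  obtain ⟨i, -, rfl | rfl⟩ := h
  · exact R_mem e i
  · exact T_mem e i

theorem Ev_R {i : ZMod (2 ^ (k + 1))} (h : par k i = 0) : Ev e (R e i) := ⟨i, h, Or.inl rfl⟩

theorem Ev_T {i : ZMod (2 ^ (k + 1))} (h : par k i = 0) : Ev e (T e i) := ⟨i, h, Or.inr rfl⟩

theorem Ev_one : Ev e (1 : X) := by
  rw [← R_zero e]; exact Ev_R e (map_zero _)

theorem par_of_Ev_R {i : ZMod (2 ^ (k + 1))} (h : Ev e (R e i)) : par k i = 0 := by
  obtain ⟨j, hj, h1 | h1⟩ := h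
  · rw [R_inj e h1]; exact hj
  · exact absurd h1 (R_ne_T e i j)

theorem par_of_Ev_T {i : ZMod (2 ^ (k + 1))} (h : Ev e (T e i)) : par k i = 0 := by
  obtain ⟨j, hj, h1 | h1⟩ := h
  · exact absurd h1.symm (R_ne_T e j i)
  · rw [T_inj e h1]; exact hj

theorem not_Ev_T_one : ¬ Ev e (T e 1) := fun h => par_one_ne k (par_of_Ev_T e h)

/-- Conjugation by an element of `S` preserves the index-two subgroup. -/
theorem Ev_conj_of_mem {s : X} (hs : s ∈ S) {b : X} (hb : Ev e b) : Ev e (s * b * s⁻¹) := by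
  obtain ⟨i, hi, rfl | rfl⟩ := hb
  · rcases cover e s hs with ⟨j, rfl⟩ | ⟨j, rfl⟩
    · rw [R_inv, RR, RR]
      apply Ev_R
      rw [map_add, map_add, map_neg, hi]; ring
    · rw [T_inv, TR, TT]
      apply Ev_R
      rw [map_sub, map_add, hi]; ring
  · rcases cover e s hs with ⟨j, rfl⟩ | ⟨j, rfl⟩
    · rw [R_inv, RT, TR]
      apply Ev_T
      rw [map_add, map_sub, map_neg, hi]
      have h2 : par k j + par k j = 0 := by
        rw [← two_mul, two_eq_zero_zmod, zero_mul]
      linear_combination -h2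
    · rw [T_inv, TT, RT]
      apply Ev_T
      rw [map_sub, map_sub, hi]
      have h2 : par k j + par k j = 0 := by
        rw [← two_mul, two_eq_zero_zmod, zero_mul]
      linear_combination h2

theorem mem_normalizer_Ev_of_mem {s : X} (hs : s ∈ S) :
    s ∈ Subgroup.normalizer {b : X | Ev e b} := by
  rw [Subgroup.mem_set_normalizer_iff]
  intro b
  constructor
  · intro hb
    exact Ev_conj_of_mem e hs hb
  · intro hb
    have h1 := Ev_conj_of_mem e (S.inv_mem hs) hb
    have h2 : s⁻¹ * (s * b * s⁻¹) * s⁻¹⁻¹ = b := by group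
    rw [h2] at h1
    exact h1

/-- A proper subgroup of `S` containing an even reflection lies in the index-two subgroup. -/
theorem Ev_of_proper (D : Subgroup X) (hDS : D ≤ S) (hne : D ≠ S) (a : ZMod (2 ^ (k + 1)))
    (ha : par k a = 0) (hT : T e a ∈ D) : ∀ x ∈ D, Ev e x := by
  intro x hx
  by_contra hE
  -- an odd rotation in D
  have hodd : ∃ i, par k i ≠ 0 ∧ R e i ∈ D := by
    rcases cover e x (hDS hx) with ⟨i, rfl⟩ | ⟨i, rfl⟩
    · exact ⟨i, fun h => hE (Ev_R e h), hx⟩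
    · refine ⟨i - a, ?_, ?_⟩
      · rw [map_sub, ha, sub_zero]
        exact fun h => hE (Ev_T e h)
      · rw [← TT]; exact D.mul_mem hT hx
  obtain ⟨i, hi, hRi⟩ := hodd
  obtain ⟨u, hu⟩ := (isUnit_of_par_ne k i hi).exists_right_inv
  have hR : ∀ j, R e j ∈ D := by
    intro j
    have h1 : R e i ^ (u * j).val = R e j := by
      rw [R_pow, ZMod.natCast_zmod_val, ← mul_assoc, hu, one_mul]
    rw [← h1]
    exact D.pow_mem hRi _
  apply hne
  apply le_antisymm hDS
  intro y hy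
  rcases cover e y hy with ⟨j, rfl⟩ | ⟨j, rfl⟩
  · exact hR j
  · have h1 : T e a * R e (j - a) = T e j := by rw [TR]; congr 1; ring
    rw [← h1]
    exact D.mul_mem hT (hR _)

end Even


section SylowPart

variable {X : Type*} [Group X] [Finite X] (S : Sylow 2 X) {k : ℕ}
  (e : (S : Subgroup X) ≃* DihedralGroup (2 ^ (k + 1)))

omit [Finite X] in
theorem R_invol (i : ZMod (2 ^ (k + 1))) (h : R e i * R e i = 1) :
    R e i = 1 ∨ R e i = R e (hf k) := by
  rw [RR] at h
  have h1 := R_inj e (h.trans (R_zero e).symm)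
  rcases add_self_eq_zero_cases k i h1 with rfl | rfl
  · left; exact R_zero e
  · right; rfl

/-- An element of odd order normalizing `S` centralizes the rotations. -/
theorem conj_R_of_odd (hk : 1 ≤ k) (y : X)
    (hy : y ∈ Subgroup.normalizer ((S : Subgroup X) : Set X))
    (hodd : Odd (orderOf y)) (j : ZMod (2 ^ (k + 1))) : y * R e j * y⁻¹ = R e j := by
  have hρ : y * R e 1 * y⁻¹ = R e 1 := by
    have hmem : y * R e 1 * y⁻¹ ∈ (S : Subgroup X) :=
      (Subgroup.mem_normalizer_iff.mp hy _).mp (R_mem e 1)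
    have hord : orderOf (y * R e 1 * y⁻¹) = 2 ^ (k + 1) := by
      have h1 := MulEquiv.orderOf_eq (MulAut.conj y) (R e 1)
      rw [MulAut.conj_apply] at h1
      rw [h1, orderOf_R_one]
    apply Cfsg.Agent.Lib.Helper67.conj_eq_self_of_odd_of_two_pow (R e 1) y (k + 1)
      (orderOf_R_one e) hodd
    rcases cover e _ hmem with ⟨i, hi⟩ | ⟨i, hi⟩
    · rw [hi]
      have h1 : R e 1 ^ i.val = R e i := by rw [R_pow, ZMod.natCast_zmod_val, one_mul]
      rw [← h1]
      exact Subgroup.npow_mem_zpowers _ _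
    · exfalso
      rw [hi, orderOf_T] at hord
      have h4 : 2 ^ 2 ≤ 2 ^ (k + 1) := Nat.pow_le_pow_right (by norm_num) (by omega)
      omega
  have h1 : R e 1 ^ j.val = R e j := by rw [R_pow, ZMod.natCast_zmod_val, one_mul]
  rw [← h1, ← conj_pow, hρ]

/-- An element of odd order normalizing `S` centralizes the reflections. -/
theorem conj_T_of_odd (hk : 1 ≤ k) (y : X)
    (hy : y ∈ Subgroup.normalizer ((S : Subgroup X) : Set X))
    (hodd : Odd (orderOf y)) (j : ZMod (2 ^ (k + 1))) : y * T e j * y⁻¹ = T e j := by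
  have hmem : y * T e 0 * y⁻¹ ∈ (S : Subgroup X) :=
    (Subgroup.mem_normalizer_iff.mp hy _).mp (T_mem e 0)
  obtain ⟨d, hd⟩ : ∃ d, y * T e 0 * y⁻¹ = T e d := by
    rcases cover e _ hmem with ⟨i, hi⟩ | ⟨i, hi⟩
    · exfalso
      have h1 : y * R e i * y⁻¹ = R e i := conj_R_of_odd S e hk y hy hodd i
      have h2 : y * T e 0 * y⁻¹ = y * R e i * y⁻¹ := by rw [hi, h1]
      have h3 : T e 0 = R e i := mul_left_cancel (mul_right_cancel h2)
      exact R_ne_T e i 0 h3.symm
    · exact ⟨i, hi⟩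
  have hshift : ∀ d', y * T e d' * y⁻¹ = T e (d + d') := by
    intro d'
    have h1 : T e d' = T e 0 * R e d' := by rw [TR, zero_add]
    calc y * T e d' * y⁻¹ = (y * T e 0 * y⁻¹) * (y * R e d' * y⁻¹) := by rw [h1]; group
      _ = T e d * R e d' := by rw [hd, conj_R_of_odd S e hk y hy hodd]
      _ = T e (d + d') := TR e d d'
  have hpow : ∀ q : ℕ, y ^ q * T e 0 * (y ^ q)⁻¹ = T e ((q : ZMod (2 ^ (k + 1))) * d) := by
    intro q
    induction q with
    | zero => simp
    | succ q ih =>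
      calc y ^ (q + 1) * T e 0 * (y ^ (q + 1))⁻¹ = y * (y ^ q * T e 0 * (y ^ q)⁻¹) * y⁻¹ := by
            rw [pow_succ']; group
        _ = y * T e ((q : ZMod (2 ^ (k + 1))) * d) * y⁻¹ := by rw [ih]
        _ = T e (d + (q : ZMod (2 ^ (k + 1))) * d) := hshift _
        _ = T e (((q + 1 : ℕ) : ZMod (2 ^ (k + 1))) * d) := by congr 1; push_cast; ring
  have h0 := hpow (orderOf y)
  rw [pow_orderOf_eq_one] at h0
  simp only [one_mul, inv_one, mul_one] at h0
  have h1 : ((orderOf y : ℕ) : ZMod (2 ^ (k + 1))) * d = 0 := (T_inj e h0).symm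
  have hd0 : d = 0 := (isUnit_natCast_of_odd k _ hodd).mul_right_eq_zero.mp h1
  rw [hshift, hd0, zero_add]

/-- The normalizer of `S` preserves the index-two subgroup `⟨r², s⟩`. -/
theorem normalizer_le_normalizer_Ev (hk : 1 ≤ k) :
    Subgroup.normalizer ((S : Subgroup X) : Set X) ≤ Subgroup.normalizer {b : X | Ev e b} := by
  have : Fact (Nat.Prime 2) := ⟨Nat.prime_two⟩
  intro x hx
  obtain ⟨a, c, hc, ho⟩ := Nat.exists_eq_two_pow_mul_odd (orderOf_pos x).ne'
  have h2 : x ^ c ∈ Subgroup.normalizer {b : X | Ev e b} := by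
    apply mem_normalizer_Ev_of_mem e
    apply Cfsg.Agent.Lib.Helper52.mem_sylow_of_mem_normalizer_of_pow S (x ^ c)
      (Subgroup.pow_mem _ hx c) a
    rw [← pow_mul, mul_comm, ← ho, pow_orderOf_eq_one]
  have h3 : x ^ (2 ^ a) ∈ Subgroup.normalizer {b : X | Ev e b} := by
    have hy : x ^ 2 ^ a ∈ Subgroup.normalizer ((S : Subgroup X) : Set X) :=
      Subgroup.pow_mem _ hx _
    have hodd : Odd (orderOf (x ^ 2 ^ a)) := by
      have hd : orderOf (x ^ 2 ^ a) ∣ c := by
        apply orderOf_dvd_of_pow_eq_one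
        rw [← pow_mul, ← ho, pow_orderOf_eq_one]
      exact Odd.of_dvd_nat hc hd
    have hcent : ∀ s ∈ (S : Subgroup X), x ^ 2 ^ a * s * (x ^ 2 ^ a)⁻¹ = s := by
      intro s hs
      rcases cover e s hs with ⟨j, rfl⟩ | ⟨j, rfl⟩
      · exact conj_R_of_odd S e hk _ hy hodd j
      · exact conj_T_of_odd S e hk _ hy hodd j
    rw [Subgroup.mem_set_normalizer_iff]
    intro b
    constructor
    · intro hb
      have hb' : Ev e b := hb
      show Ev e (x ^ 2 ^ a * b * (x ^ 2 ^ a)⁻¹)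
      rw [hcent b (Ev_mem e hb')]; exact hb'
    · intro hb
      have hb0 : Ev e (x ^ 2 ^ a * b * (x ^ 2 ^ a)⁻¹) := hb
      have hb' := hcent _ (Ev_mem e hb0)
      have h4 : x ^ 2 ^ a * b * (x ^ 2 ^ a)⁻¹ = b := mul_left_cancel (mul_right_cancel hb')
      rw [h4] at hb0; exact hb0
  exact Cfsg.Agent.Lib.Helper67.mem_of_pow_mem_of_coprime _ x c (2 ^ a)
    (Nat.Coprime.pow_right _
      ((Nat.Prime.coprime_iff_not_dvd Nat.prime_two).mpr hc.not_two_dvd_nat).symm) h2 h3

end SylowPart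

/-- A subgroup of order four has an element different from two given elements. -/
theorem exists_mem_ne_ne {X : Type*} [Group X] (V : Subgroup X) (h : Nat.card V = 4) (a b : X) :
    ∃ v ∈ V, v ≠ a ∧ v ≠ b := by
  by_contra hcon
  push Not at hcon
  have hsub : (V : Set X) ⊆ {a, b} := by
    intro v hv
    by_cases h1 : v = a
    · left; exact h1
    · right; exact hcon v hv h1
  have h1 := Set.ncard_le_ncard hsub (Set.toFinite _)
  have h2 : ({a, b} : Set X).ncard ≤ 2 := by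
    have := Set.ncard_insert_le a ({b} : Set X)
    rw [Set.ncard_singleton] at this
    exact this
  have h3 : Nat.card V = (V : Set X).ncard := Nat.card_coe_set_eq (V : Set X)
  omega

end Cfsg.Agent.Lib.Helper67.DihFour
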